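import Cfsg.Agent.Helper28.Y5D1.Data

set_option autoImplicit false

namespace Cfsg.Agent.Helper28.Y5D1

theorem fin_16 : Cfsg.Agent.Helper28.ptChunk (Cfsg.Agent.Helper28.finPt D 28160 lv T ftp ftc) 28160 1024 16 = true := by decide +kernel

theorem fin_17 : Cfsg.Agent.Helper28.ptChunk (Cfsg.Agent.Helper28.finPt D 28160 lv T ftp ftc) 28160 1024 17 = true := by decide +kernel

theorem fin_18 : Cfsg.Agent.Helper28.ptChunk (Cfsg.Agent.Helper28.finPt D 28160 lv T ftp ftc) 28160 1024 18 = true := by decide +kernel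

theorem fin_19 : Cfsg.Agent.Helper28.ptChunk (Cfsg.Agent.Helper28.finPt D 28160 lv T ftp ftc) 28160 1024 19 = true := by decide +kernel

theorem fin_20 : Cfsg.Agent.Helper28.ptChunk (Cfsg.Agent.Helper28.finPt D 28160 lv T ftp ftc) 28160 1024 20 = true := by decide +kernel

theorem fin_21 : Cfsg.Agent.Helper28.ptChunk (Cfsg.Agent.Helper28.finPt D 28160 lv T ftp ftc) 28160 1024 21 = true := by decide +kernel

theorem fin_22 : Cfsg.Agent.Helper28.ptChunk (Cfsg.Agent.Helper28.finPt D 28160 lv T ftp ftc) 28160 1024 22 = true := by decide +kernel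

theorem fin_23 : Cfsg.Agent.Helper28.ptChunk (Cfsg.Agent.Helper28.finPt D 28160 lv T ftp ftc) 28160 1024 23 = true := by decide +kernel

end Cfsg.Agent.Helper28.Y5D1
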