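import Cfsg.Agent.Helper28.Y5D1.Data

set_option autoImplicit false

namespace Cfsg.Agent.Helper28.Y5D1

theorem rel_80 : Cfsg.Agent.Helper28.ptChunk (Cfsg.Agent.Helper28.relPt T relL) 28160 256 80 = true := by decide +kernel

theorem rel_81 : Cfsg.Agent.Helper28.ptChunk (Cfsg.Agent.Helper28.relPt T relL) 28160 256 81 = true := by decide +kernel

theorem rel_82 : Cfsg.Agent.Helper28.ptChunk (Cfsg.Agent.Helper28.relPt T relL) 28160 256 82 = true := by decide +kernel

theorem rel_83 : Cfsg.Agent.Helper28.ptChunk (Cfsg.Agent.Helper28.relPt T relL) 28160 256 83 = true := by decide +kernel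

theorem rel_84 : Cfsg.Agent.Helper28.ptChunk (Cfsg.Agent.Helper28.relPt T relL) 28160 256 84 = true := by decide +kernel

theorem rel_85 : Cfsg.Agent.Helper28.ptChunk (Cfsg.Agent.Helper28.relPt T relL) 28160 256 85 = true := by decide +kernel

theorem rel_86 : Cfsg.Agent.Helper28.ptChunk (Cfsg.Agent.Helper28.relPt T relL) 28160 256 86 = true := by decide +kernel

theorem rel_87 : Cfsg.Agent.Helper28.ptChunk (Cfsg.Agent.Helper28.relPt T relL) 28160 256 87 = true := by decide +kernel

end Cfsg.Agent.Helper28.Y5D1
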