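import Cfsg.Agent.Helper28.Y5D1.Data

set_option autoImplicit false

namespace Cfsg.Agent.Helper28.Y5D1

theorem rel_88 : Cfsg.Agent.Helper28.ptChunk (Cfsg.Agent.Helper28.relPt T relL) 28160 256 88 = true := by decide +kernel

theorem rel_89 : Cfsg.Agent.Helper28.ptChunk (Cfsg.Agent.Helper28.relPt T relL) 28160 256 89 = true := by decide +kernel

theorem rel_90 : Cfsg.Agent.Helper28.ptChunk (Cfsg.Agent.Helper28.relPt T relL) 28160 256 90 = true := by decide +kernel

theorem rel_91 : Cfsg.Agent.Helper28.ptChunk (Cfsg.Agent.Helper28.relPt T relL) 28160 256 91 = true := by decide +kernel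

theorem rel_92 : Cfsg.Agent.Helper28.ptChunk (Cfsg.Agent.Helper28.relPt T relL) 28160 256 92 = true := by decide +kernel

theorem rel_93 : Cfsg.Agent.Helper28.ptChunk (Cfsg.Agent.Helper28.relPt T relL) 28160 256 93 = true := by decide +kernel

theorem rel_94 : Cfsg.Agent.Helper28.ptChunk (Cfsg.Agent.Helper28.relPt T relL) 28160 256 94 = true := by decide +kernel

theorem rel_95 : Cfsg.Agent.Helper28.ptChunk (Cfsg.Agent.Helper28.relPt T relL) 28160 256 95 = true := by decide +kernel

end Cfsg.Agent.Helper28.Y5D1
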