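import Cfsg.Agent.Helper28.Y5D1.Data

set_option autoImplicit false

namespace Cfsg.Agent.Helper28.Y5D1

theorem rows_16 : Cfsg.Agent.Helper28.ptChunk (Cfsg.Agent.Helper28.rowChk D) 47975 512 16 = true := by decide +kernel

theorem rows_17 : Cfsg.Agent.Helper28.ptChunk (Cfsg.Agent.Helper28.rowChk D) 47975 512 17 = true := by decide +kernel

theorem rows_18 : Cfsg.Agent.Helper28.ptChunk (Cfsg.Agent.Helper28.rowChk D) 47975 512 18 = true := by decide +kernel

theorem rows_19 : Cfsg.Agent.Helper28.ptChunk (Cfsg.Agent.Helper28.rowChk D) 47975 512 19 = true := by decide +kernel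

theorem rows_20 : Cfsg.Agent.Helper28.ptChunk (Cfsg.Agent.Helper28.rowChk D) 47975 512 20 = true := by decide +kernel

theorem rows_21 : Cfsg.Agent.Helper28.ptChunk (Cfsg.Agent.Helper28.rowChk D) 47975 512 21 = true := by decide +kernel

theorem rows_22 : Cfsg.Agent.Helper28.ptChunk (Cfsg.Agent.Helper28.rowChk D) 47975 512 22 = true := by decide +kernel

theorem rows_23 : Cfsg.Agent.Helper28.ptChunk (Cfsg.Agent.Helper28.rowChk D) 47975 512 23 = true := by decide +kernel

end Cfsg.Agent.Helper28.Y5D1
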